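import Cfsg.Agent.BlkC.Closed
import Cfsg.Agent.Blk.Dict

/-!
# Characters in blocks inducing a given block, as functions of subgroups (owner: helper78)
-/

set_option autoImplicit false
set_option linter.style.haveILetI false
set_option linter.unusedSectionVars false

namespace Cfsg.Agent.BlkC

open scoped ComplexConjugate
open Cfsg Cfsg.Agent.CharBase Cfsg.Agent.Blk Cfsg.Agent.BlkInd

universe u v w

section parts

variable {G : Type u} [Group G] [Finite G] (p : ℕ) [hp : Fact p.Prime]

/-- the `p`-part of an element -/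
noncomputable def ppt (g : G) : G := Classical.choose (exists_decomp hp.out g)

/-- the `p`-regular part of an element -/
noncomputable def rpt (g : G) : G :=
  Classical.choose (Classical.choose_spec (exists_decomp hp.out g))

theorem ppt_spec (g : G) : ppt p g * rpt p g = g ∧ rpt p g * ppt p g = ppt p g * rpt p g ∧
    (∃ k, orderOf (ppt p g) = p ^ k) ∧ ¬ p ∣ orderOf (rpt p g) ∧
      ppt p g ∈ Subgroup.zpowers g ∧ rpt p g ∈ Subgroup.zpowers g :=
  Classical.choose_spec (Classical.choose_spec (exists_decomp hp.out g))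

theorem isPPart_ppt (g : G) : IsPPart p g (ppt p g) := by
  obtain ⟨h1, h2, h3, h4, -, -⟩ := ppt_spec p g
  exact ⟨rpt p g, h1, h2.symm, h3, h4⟩

theorem ppt_ne_one {g : G} (hg : p ∣ orderOf g) : ppt p g ≠ 1 := by
  intro h
  obtain ⟨h1, h2, h3, h4, -, -⟩ := ppt_spec p g
  rw [h, one_mul] at h1
  rw [h1] at h4
  exact h4 hg

variable {L : Type v} [Group L] [Finite L]

theorem map_ppt {ι : L →* G} (hι : Function.Injective ι) (l : L) :
    ι (ppt p l) = ppt p (ι l) := by
  obtain ⟨h1, h2, h3, h4, -, -⟩ := ppt_spec p l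
  refine isPPart_unique hp.out (g := ι l) ?_ (isPPart_ppt p (ι l))
  refine ⟨ι (rpt p l), by rw [← map_mul, h1], ?_, ?_, ?_⟩
  · change ι _ * ι _ = ι _ * ι _
    rw [← map_mul, ← map_mul, h2]
  · rwa [orderOf_injective ι hι]
  · rwa [orderOf_injective ι hι]

theorem map_rpt {ι : L →* G} (hι : Function.Injective ι) (l : L) :
    ι (rpt p l) = rpt p (ι l) := by
  have h1 := (ppt_spec p l).1
  have h2 := (ppt_spec p (ι l)).1
  rw [← map_ppt p hι] at h2
  rw [← mul_right_inj (ι (ppt p l)), ← map_mul, h1, h2]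

end parts

section inb

variable {G : Type u} [Group G] {M : Ideal AlgInt} (b : Set (IrrCharacter G))

open Classical in
/-- the central character of `ψ`, induced along `ι` -/
noncomputable def indSum {L : Type v} [Group L] [Fintype L] (ι : L →* G) (ψ : L → ℂ) (g : G) : ℂ :=
  (∑ l : L, if IsConj g (ι l) then ψ l else 0) / ψ 1

variable (M)

/-- the irreducible characters of `L` whose block induces `b` along `ι` -/
def inb {L : Type v} [Group L] [Fintype L] (ι : L →* G) : Set (IrrCharacter L) :=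
  {ψ | ∀ χ ∈ b, ∀ g : G, MemLocalIdeal M (indSum ι (ψ : L → ℂ) g - centralChar (χ : G → ℂ) g)}

/-- `∑ |η(s)|²` over the characters inducing `b` -/
noncomputable def Wt {L : Type v} [Group L] [Fintype L] (ι : L →* G) (s : L) : ℂ :=
  ∑ η ∈ Bfin (inb M b ι), (η : L → ℂ) s * conj ((η : L → ℂ) s)

variable {M}

open Classical in
theorem indSum_eq_omega {L : Type v} [Group L] [Fintype L] (ι : L →* G) (ψ : L → ℂ) (g : G) :
    indSum ι ψ g = omega ψ (fun l => if IsConj g (ι l) then 1 else 0) := by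
  unfold indSum omega
  congr 1
  refine Finset.sum_congr rfl fun l _ => ?_
  beta_reduce
  split_ifs
  · rw [one_mul]
  · rw [zero_mul]

open Classical in
theorem indF_isClassFunction {L : Type v} [Group L] (ι : L →* G) (g : G) :
    IsClassFunction L (fun l => if IsConj g (ι l) then (1 : ℂ) else 0) := by
  intro l x
  have h : IsConj g (ι (x * l * x⁻¹)) ↔ IsConj g (ι l) := by
    rw [map_mul, map_mul, map_inv]
    have h1 : IsConj (ι l) (ι x * ι l * (ι x)⁻¹) := isConj_iff.mpr ⟨ι x, rfl⟩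
    exact ⟨fun h => h.trans h1.symm, fun h => h.trans h1⟩
  simp only [h]

theorem inb_closed [M.IsPrime] {L : Type v} [Group L] [Fintype L] (ι : L →* G) :
    ClosedSB M (inb M b ι) := by
  classical
  intro ψ hψ ψ' h χ hχ g
  have h1 := BlkC.mli_omega_sub h (indF_isClassFunction ι g) (fun l => by
    split_ifs
    · exact mlr_one
    · exact mlr_zero)
  rw [← indSum_eq_omega, ← indSum_eq_omega] at h1
  exact mli_trans (mli_symm h1) (hψ χ hχ g)

theorem indSum_id [Fintype G] (ψ : IrrCharacter G) (g : G) :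
    indSum (MonoidHom.id G) (ψ : G → ℂ) g = centralChar (ψ : G → ℂ) g := by
  classical
  rw [← om_clSum (irr_isClassFunction ψ) g, om_eq_omega, indSum_eq_omega]
  rfl

theorem inb_id [M.IsPrime] [Fintype G] (hb : IsPBlock M b) : inb M b (MonoidHom.id G) = b := by
  ext ψ
  constructor
  · intro h
    obtain ⟨χ, hχ⟩ := block_nonempty hb
    refine mem_of_sameBlock hb hχ fun g => ?_
    have := h χ hχ g
    rw [indSum_id] at this
    exact mli_symm this
  · intro h χ hχ g
    rw [indSum_id]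
    exact sameBlock_of_mem hb h hχ g

theorem indSum_subtype [Fintype G] (H : Subgroup G) [Fintype H] (ψ : H → ℂ) (g : G) :
    indSum H.subtype ψ g = inducedCentralChar H ψ g := by
  classical
  unfold indSum inducedCentralChar
  rw [finsum_mem_eq_finite_toFinset_sum _ (Set.toFinite _), ← Finset.sum_div]
  congr 1
  have h1 : (Set.toFinite {h : H | IsConj g (h : G)}).toFinset =
      Finset.univ.filter (fun h : H => IsConj g (h : G)) := by
    ext h; simp
  rw [h1, Finset.sum_filter]
  refine Finset.sum_congr rfl fun l _ => ?_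
  by_cases h : IsConj g (l : G)
  · rw [if_pos h, if_pos (show IsConj g (H.subtype l) from h)]
  · rw [if_neg h, if_neg (show ¬ IsConj g (H.subtype l) from h)]

theorem inb_subtype [M.IsPrime] [Fintype G] (hb : IsPBlock M b) (H : Subgroup G) [Fintype H] :
    inb M b H.subtype = {ψ | ∃ β : Set (IrrCharacter H), ψ ∈ β ∧ IsInducedBlock M H β b} := by
  ext ψ
  constructor
  · intro h
    refine ⟨blockOf M (ψ : H → ℂ), mem_blockOf_self ψ, isPBlock_blockOf ψ, hb, ?_⟩
    intro ξ hξ χ hχ g
    have h1 := inb_closed b H.subtype ψ h ξ hξ χ hχ g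
    rwa [indSum_subtype] at h1
  · rintro ⟨β, hψ, hind⟩ χ hχ g
    rw [indSum_subtype]
    exact hind.2.2 ψ hψ χ hχ g

/-- transitivity -/
theorem mli_indSum_sub [M.IsPrime] {L : Type v} [Group L] [Fintype L] (ι : L →* G)
    {C : Subgroup L} [Fintype C] {e : Set (IrrCharacter C)} {β : Set (IrrCharacter L)}
    (hind : IsInducedBlock M C e β) {η : IrrCharacter C} (hη : η ∈ e) {ψ : IrrCharacter L}
    (hψ : ψ ∈ β) (g : G) :
    MemLocalIdeal M (indSum (ι.comp C.subtype) (η : C → ℂ) g - indSum ι (ψ : L → ℂ) g) := by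
  classical
  have h1 := mli_om_resH_sub hind hη hψ (z := ga fun l => if IsConj g (ι l) then (1 : ℂ) else 0)
    (isCentr_ga (indF_isClassFunction ι g)) (fun l => by
      rw [coeff_ga]; split_ifs
      · exact mlr_one
      · exact mlr_zero)
  have h2 : om (ψ : L → ℂ) (ga fun l => if IsConj g (ι l) then (1 : ℂ) else 0) =
      indSum ι (ψ : L → ℂ) g := by
    rw [indSum_eq_omega]; rfl
  have h3 : om (η : C → ℂ) (resH C (ga fun l => if IsConj g (ι l) then (1 : ℂ) else 0)) =
      indSum (ι.comp C.subtype) (η : C → ℂ) g := by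
    rw [indSum_eq_omega]; rfl
  rwa [h2, h3] at h1

variable {p : ℕ} [hp : Fact p.Prime]

theorem indSet_inb (hM : IsPModular p M) {L : Type v} [Group L] [Fintype L] (ι : L →* G) {x : L}
    (hx : ∃ k : ℕ, orderOf x = p ^ k) {C : Subgroup L} [Fintype C]
    (hC : C = Subgroup.centralizer ({x} : Set L)) :
    indSet M C (inb M b ι) = inb M b (ι.comp C.subtype) := by
  haveI := isPrime_of_isPModular hM
  ext η
  constructor
  · rintro ⟨ψ, hψ, hind⟩ χ hχ g
    exact mli_trans (mli_indSum_sub ι hind (mem_blockOf_self η) (mem_blockOf_self ψ) g)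
      (hψ χ hχ g)
  · intro h
    obtain ⟨β, hβ⟩ := exists_induced hM hx hC (isPBlock_blockOf (M := M) η)
    obtain ⟨ψ, hψ⟩ := block_nonempty hβ.2.1
    refine ⟨ψ, fun χ hχ g => ?_, ?_⟩
    · exact mli_trans (mli_symm (mli_indSum_sub ι hβ (mem_blockOf_self η) hψ g)) (h χ hχ g)
    · rwa [isPBlock_eq_of_mem (isPBlock_blockOf ψ) hβ.2.1 (mem_blockOf_self ψ) hψ]

/-- transport along isomorphisms over `G` -/
theorem Wt_congr {L₁ : Type v} [Group L₁] [Fintype L₁] {L₂ : Type w} [Group L₂] [Fintype L₂]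
    (ι₁ : L₁ →* G) (ι₂ : L₂ →* G) (φ : L₁ ≃* L₂) (h : ∀ l, ι₂ (φ l) = ι₁ l) (s : L₁) :
    Wt M b ι₁ s = Wt M b ι₂ (φ s) := by
  classical
  have hI : ∀ (ψ : IrrCharacter L₁) (g : G),
      indSum ι₂ ((irrMap φ ψ : IrrCharacter L₂) : L₂ → ℂ) g = indSum ι₁ (ψ : L₁ → ℂ) g := by
    intro ψ g
    unfold indSum
    rw [irrMap_apply, map_one]
    congr 1
    symm
    refine Fintype.sum_equiv φ.toEquiv _ _ fun l => ?_
    change _ = if IsConj g (ι₂ (φ l)) then _ else 0
    rw [h, irrMap_apply]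
    change _ = if IsConj g (ι₁ l) then (ψ : L₁ → ℂ) (φ.symm (φ l)) else 0
    rw [MulEquiv.symm_apply_apply]
  unfold Wt
  refine Finset.sum_bij (fun ψ _ => irrMap φ ψ) ?_ ?_ ?_ ?_
  · intro ψ hψ
    rw [mem_Bfin] at hψ ⊢
    intro χ hχ g
    rw [hI]
    exact hψ χ hχ g
  · intro ψ _ ψ' _ hh
    exact (irrMap φ).injective hh
  · intro ψ hψ
    refine ⟨(irrMap φ).symm ψ, ?_, (irrMap φ).apply_symm_apply ψ⟩
    rw [mem_Bfin] at hψ ⊢
    intro χ hχ g
    rw [← hI, (irrMap φ).apply_symm_apply]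
    exact hψ χ hχ g
  · intro ψ _
    rw [irrMap_apply, MulEquiv.symm_apply_apply]

open Classical in
/-- the weight as a function of subgroups -/
noncomputable def WG [Fintype G] (M : Ideal AlgInt) (b : Set (IrrCharacter G)) (K : Subgroup G)
    (s : G) : ℂ :=
  if h : s ∈ K then @Wt G _ M b K _ (Fintype.ofFinite K) K.subtype ⟨s, h⟩ else 0

theorem WG_of_mem [Fintype G] (K : Subgroup G) [inst : Fintype K] {s : G} (h : s ∈ K) :
    WG M b K s = Wt M b K.subtype ⟨s, h⟩ := by
  unfold WG
  rw [dif_pos h]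
  have : Fintype.ofFinite K = inst := Subsingleton.elim _ _
  rw [this]

set_option maxHeartbeats 400000 in
theorem Wt_eq_WG [Fintype G] {L : Type v} [Group L] [Fintype L] (ι : L →* G)
    (hι : Function.Injective ι) {C : Subgroup L} [Fintype C] {K : Subgroup G}
    (hCK : ∀ c : L, c ∈ C ↔ ι c ∈ K) (hK : K ≤ ι.range) {s : L} (hs : s ∈ C) :
    Wt M b (ι.comp C.subtype) ⟨s, hs⟩ = WG M b K (ι s) := by
  classical
  haveI := Fintype.ofFinite K
  let f : C →* K :=
    { toFun := fun c => ⟨ι c, (hCK c).1 c.2⟩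
      map_one' := Subtype.ext (by simp)
      map_mul' := fun c d => Subtype.ext (by simp) }
  have hf : Function.Bijective f := by
    constructor
    · intro c d h
      exact Subtype.ext (hι (congrArg Subtype.val h))
    · rintro ⟨k, hk⟩
      obtain ⟨c, rfl⟩ := hK hk
      exact ⟨⟨c, (hCK c).2 hk⟩, rfl⟩
  rw [WG_of_mem b K ((hCK s).1 hs)]
  exact Wt_congr b (ι.comp C.subtype) K.subtype (MulEquiv.ofBijective f hf) (fun c => rfl) ⟨s, hs⟩

set_option maxHeartbeats 400000 in
theorem sum_inb_eq_WG [Fintype G] (hM : IsPModular p M) {L : Type v} [Group L] [Fintype L]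
    (ι : L →* G) (hι : Function.Injective ι) (l : L) :
    ∑ χ ∈ Bfin (inb M b ι), (χ : L → ℂ) l * conj ((χ : L → ℂ) l) =
      WG M b (Subgroup.centralizer ({ppt p (ι l)} : Set G) ⊓ ι.range) (rpt p (ι l)) := by
  classical
  haveI := isPrime_of_isPModular hM
  obtain ⟨h1, h2, h3, h4, -, -⟩ := ppt_spec p l
  haveI := Fintype.ofFinite (Subgroup.centralizer ({ppt p l} : Set L))
  have hrC : rpt p l ∈ Subgroup.centralizer ({ppt p l} : Set L) := by
    rw [Subgroup.mem_centralizer_singleton_iff]; exact h2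
  have hs : ¬ p ∣ orderOf (⟨rpt p l, hrC⟩ : Subgroup.centralizer ({ppt p l} : Set L)) := by
    rwa [← Subgroup.orderOf_coe]
  have h5 := sum_section_closed hM h3 rfl (inb_closed b ι) hs
  rw [indSet_inb b hM ι h3 rfl] at h5
  have h6 : ppt p l * ((⟨rpt p l, hrC⟩ : Subgroup.centralizer ({ppt p l} : Set L)) : L) = l := h1
  rw [h6] at h5
  rw [h5]
  have h7 := Wt_eq_WG (M := M) b ι hι (C := Subgroup.centralizer ({ppt p l} : Set L))
    (K := Subgroup.centralizer ({ppt p (ι l)} : Set G) ⊓ ι.range) (fun c => by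
      rw [Subgroup.mem_inf, ← map_ppt p hι, Subgroup.mem_centralizer_singleton_iff,
        Subgroup.mem_centralizer_singleton_iff, ← map_mul, ← map_mul, hι.eq_iff]
      exact ⟨fun h => ⟨h, c, rfl⟩, fun h => h.1⟩) inf_le_right hrC
  rw [map_rpt p hι] at h7
  rw [← h7]
  rfl

open Classical in
theorem card_mul_inb [Fintype G] (hM : IsPModular p M) {L : Type v} [Group L] [Fintype L]
    (ι : L →* G) (hι : Function.Injective ι) :
    (Nat.card L : ℂ) * ((Nat.card (inb M b ι) : ℂ) - (blockRank p (inb M b ι) : ℂ)) =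
      ∑ l : L, if p ∣ orderOf l then
        WG M b (Subgroup.centralizer ({ppt p (ι l)} : Set G) ⊓ ι.range) (rpt p (ι l)) else 0 := by
  haveI := isPrime_of_isPModular hM
  rw [card_mul_card_sub_rank hM (inb_closed b ι)]
  refine Finset.sum_congr rfl fun l _ => ?_
  split_ifs with hl
  · exact sum_inb_eq_WG b hM ι hι l
  · rfl

end inb

end Cfsg.Agent.BlkC
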