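import Mathlib

/-!
# The cancellation of normal chains of `p`-subgroups stabilized by a `p`-singular element
(owner: helper78)
-/

set_option autoImplicit false
set_option linter.style.haveILetI false
set_option linter.unusedSectionVars false

namespace Cfsg.Agent.BlkC.Chain

variable {G : Type*} [Group G]

/-- chains of nontrivial `p`-subgroups normalizing each other -/
structure IsNC (p : ℕ) (σ : Finset (Subgroup G)) : Prop where
  chain : ∀ Q ∈ σ, ∀ R ∈ σ, Q ≤ R ∨ R ≤ Q
  ne_bot : ∀ Q ∈ σ, Q ≠ ⊥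
  isPGroup : ∀ Q ∈ σ, IsPGroup p Q
  norm : ∀ Q ∈ σ, ∀ R ∈ σ, R ≤ Subgroup.normalizer (Q : Set G)

/-- the stabilizer of a chain -/
def NS (σ : Finset (Subgroup G)) : Subgroup G := ⨅ Q ∈ σ, Subgroup.normalizer (Q : Set G)

theorem mem_NS {σ : Finset (Subgroup G)} {g : G} :
    g ∈ NS σ ↔ ∀ Q ∈ σ, g ∈ Subgroup.normalizer (Q : Set G) := by
  unfold NS
  simp only [Subgroup.mem_iInf]

/-- `c` normalizes `H` iff conjugation by `c` fixes `H` -/
theorem mem_normalizer_iff_map {H : Subgroup G} {c : G} :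
    c ∈ Subgroup.normalizer (H : Set G) ↔ H.map (MulAut.conj c).toMonoidHom = H := by
  rw [Subgroup.mem_normalizer_iff]
  constructor
  · intro h
    ext x
    rw [Subgroup.mem_map]
    constructor
    · rintro ⟨y, hy, rfl⟩
      exact (h y).1 hy
    · intro hx
      refine ⟨c⁻¹ * x * c, ?_, ?_⟩
      · rw [h]
        have : c * (c⁻¹ * x * c) * c⁻¹ = x := by group
        rwa [this]
      · simp [MulAut.conj_apply, mul_assoc]
  · intro h x
    constructor
    · intro hx
      have : (MulAut.conj c).toMonoidHom x ∈ H.map (MulAut.conj c).toMonoidHom := ⟨x, hx, rfl⟩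
      rw [h] at this
      exact this
    · intro hx
      rw [← h, Subgroup.mem_map] at hx
      obtain ⟨y, hy, hyx⟩ := hx
      have : y = x := (MulAut.conj c).injective hyx
      rwa [← this]

theorem mem_normalizer_sup {H K : Subgroup G} {c : G} (h1 : c ∈ Subgroup.normalizer (H : Set G))
    (h2 : c ∈ Subgroup.normalizer (K : Set G)) : c ∈ Subgroup.normalizer ((H ⊔ K : Subgroup G) : Set G) := by
  rw [mem_normalizer_iff_map] at *
  rw [Subgroup.map_sup, h1, h2]

theorem mem_normalizer_finset_sup {σ : Finset (Subgroup G)} {c : G} (h : c ∈ NS σ) :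
    c ∈ Subgroup.normalizer ((σ.sup id : Subgroup G) : Set G) := by
  classical
  induction σ using Finset.induction_on with
  | empty =>
    rw [Finset.sup_empty, mem_normalizer_iff_map, Subgroup.map_bot]
  | insert a s ha ih =>
    rw [Finset.sup_insert]
    refine mem_normalizer_sup (mem_NS.1 h a (Finset.mem_insert_self a s)) (ih ?_)
    rw [mem_NS] at h ⊢
    exact fun Q hQ => h Q (Finset.mem_insert_of_mem hQ)

theorem sup_mem_or {σ : Finset (Subgroup G)} (h : ∀ Q ∈ σ, ∀ R ∈ σ, Q ≤ R ∨ R ≤ Q) :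
    σ.sup id = ⊥ ∨ σ.sup id ∈ σ := by
  classical
  induction σ using Finset.induction_on with
  | empty => left; exact Finset.sup_empty
  | insert a s ha ih =>
    right
    rw [Finset.sup_insert, id]
    rcases ih (fun Q hQ R hR => h Q (Finset.mem_insert_of_mem hQ) R (Finset.mem_insert_of_mem hR))
      with h1 | h1
    · rw [h1, sup_bot_eq]; exact Finset.mem_insert_self a s
    · rcases h a (Finset.mem_insert_self a s) _ (Finset.mem_insert_of_mem h1) with h2 | h2
      · rw [sup_eq_right.2 h2]; exact Finset.mem_insert_of_mem h1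
      · rw [sup_eq_left.2 h2]; exact Finset.mem_insert_self a s

section toggle

variable (y : G)

/-- the group `T ⟨y⟩` -/
def TT (σ : Finset (Subgroup G)) : Subgroup G := σ.sup id ⊔ Subgroup.zpowers y

open Classical in
/-- the largest member not containing `y` -/
noncomputable def AA (σ : Finset (Subgroup G)) : Subgroup G := (σ.filter fun Q => y ∉ Q).sup id

/-- the subgroup generated by the conjugates of `y` under `H` -/
def KK (H : Subgroup G) : Subgroup G := Subgroup.closure {x | ∃ t ∈ H, x = t * y * t⁻¹}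

/-- the subgroup to insert or to remove -/
noncomputable def RR (σ : Finset (Subgroup G)) : Subgroup G := AA y σ ⊔ KK y (TT y σ)

variable {y}

theorem y_mem_KK (H : Subgroup G) : y ∈ KK y H :=
  Subgroup.subset_closure ⟨1, H.one_mem, by simp⟩

theorem y_mem_RR (σ : Finset (Subgroup G)) : y ∈ RR y σ :=
  (le_sup_right : KK y (TT y σ) ≤ _) (y_mem_KK _)

theorem y_mem_TT (σ : Finset (Subgroup G)) : y ∈ TT y σ :=
  (le_sup_right : Subgroup.zpowers y ≤ _) (Subgroup.mem_zpowers y)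

theorem KK_le {H K : Subgroup G} (hy : y ∈ K) (h : H ≤ Subgroup.normalizer (K : Set G)) :
    KK y H ≤ K := by
  unfold KK
  rw [Subgroup.closure_le]
  rintro x ⟨t, ht, rfl⟩
  exact (Subgroup.mem_normalizer_iff.1 (h ht) y).1 hy

theorem KK_le_self {H : Subgroup G} (hy : y ∈ H) : KK y H ≤ H := KK_le hy Subgroup.le_normalizer

theorem normalizer_KK {H : Subgroup G} {c : G} (hc : c ∈ Subgroup.normalizer (H : Set G))
    (h : c * y * c⁻¹ ∈ {x | ∃ t ∈ H, x = t * y * t⁻¹}) : c ∈ Subgroup.normalizer (KK y H : Set G) := by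
  rw [mem_normalizer_iff_map]
  have key : ∀ d : G, d ∈ Subgroup.normalizer (H : Set G) →
      d * y * d⁻¹ ∈ {x | ∃ t ∈ H, x = t * y * t⁻¹} →
      (KK y H).map (MulAut.conj d).toMonoidHom ≤ KK y H := by
    intro d hd hdy
    unfold KK
    rw [MonoidHom.map_closure, Subgroup.closure_le]
    rintro _ ⟨x, ⟨t, ht, rfl⟩, rfl⟩
    obtain ⟨t', ht', hd'⟩ := hdy
    refine Subgroup.subset_closure ⟨d * t * d⁻¹ * t', H.mul_mem
      ((Subgroup.mem_normalizer_iff.1 hd t).1 ht) ht', ?_⟩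
    simp only [MulEquiv.coe_toMonoidHom, MulAut.conj_apply]
    calc d * (t * y * t⁻¹) * d⁻¹ = (d * t * d⁻¹) * (d * y * d⁻¹) * (d * t * d⁻¹)⁻¹ := by group
      _ = (d * t * d⁻¹) * (t' * y * t'⁻¹) * (d * t * d⁻¹)⁻¹ := by rw [hd']
      _ = _ := by group
  refine le_antisymm (key c hc h) ?_
  have hc' : c⁻¹ ∈ Subgroup.normalizer (H : Set G) := Subgroup.inv_mem _ hc
  obtain ⟨t, ht, hty⟩ := h
  have h2 := key c⁻¹ hc' ⟨c⁻¹ * t⁻¹ * c, by
      have := (Subgroup.mem_normalizer_iff.1 hc' t⁻¹).1 (H.inv_mem ht)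
      simpa using this, by
      have h3 : y = t⁻¹ * (c * y * c⁻¹) * t := by rw [hty]; group
      calc c⁻¹ * y * c⁻¹⁻¹ = c⁻¹ * (t⁻¹ * (c * y * c⁻¹) * t) * c⁻¹⁻¹ := by rw [← h3]
        _ = _ := by group⟩
  intro x hx
  rw [Subgroup.mem_map]
  refine ⟨c⁻¹ * x * c, ?_, ?_⟩
  · have := h2 (Subgroup.mem_map_of_mem _ hx)
    simpa using this
  · simp only [MulEquiv.coe_toMonoidHom, MulAut.conj_apply]; group

theorem AA_mem_or {p : ℕ} {σ : Finset (Subgroup G)} (h : IsNC p σ) :
    AA y σ = ⊥ ∨ (AA y σ ∈ σ ∧ y ∉ AA y σ) := by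
  classical
  have h1 := sup_mem_or (σ := σ.filter fun Q => y ∉ Q) (fun Q hQ R hR =>
    h.chain Q (Finset.mem_filter.1 hQ).1 R (Finset.mem_filter.1 hR).1)
  rcases h1 with h1 | h1
  · left; unfold AA; convert h1
  · right
    have h2 : AA y σ ∈ σ.filter fun Q => y ∉ Q := by unfold AA; convert h1
    exact Finset.mem_filter.1 h2

theorem AA_le_sup (σ : Finset (Subgroup G)) : AA y σ ≤ σ.sup id := by
  classical
  exact Finset.sup_mono (Finset.filter_subset (fun Q => y ∉ Q) σ)

theorem RR_def (σ : Finset (Subgroup G)) : RR y σ = AA y σ ⊔ KK y (TT y σ) := rfl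

theorem AA_le_TT (σ : Finset (Subgroup G)) : AA y σ ≤ TT y σ := (AA_le_sup σ).trans le_sup_left

theorem RR_le_TT (σ : Finset (Subgroup G)) : RR y σ ≤ TT y σ :=
  sup_le (AA_le_TT σ) (KK_le_self (y_mem_TT σ))

variable {p : ℕ} [hp : Fact p.Prime] {σ : Finset (Subgroup G)}

theorem TT_le_normalizer (h : IsNC p σ) (hy : y ∈ NS σ) {Q : Subgroup G} (hQ : Q ∈ σ) :
    TT y σ ≤ Subgroup.normalizer (Q : Set G) := by
  refine sup_le (Finset.sup_le fun R hR => h.norm Q hQ R hR) ?_
  rw [Subgroup.zpowers_le]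
  exact mem_NS.1 hy Q hQ

theorem AA_ne (h : IsNC p σ) (hy1 : y ≠ 1) : y ∉ AA y σ := by
  rcases AA_mem_or (y := y) h with h1 | h1
  · rw [h1, Subgroup.mem_bot]; exact hy1
  · exact h1.2

theorem normalizer_AA (h : IsNC p σ) {c : G} (hc : c ∈ NS σ) :
    c ∈ Subgroup.normalizer (AA y σ : Set G) := by
  rcases AA_mem_or (y := y) h with h1 | h1
  · rw [h1, mem_normalizer_iff_map, Subgroup.map_bot]
  · exact mem_NS.1 hc _ h1.1

theorem TT_le_NS (h : IsNC p σ) (hy : y ∈ NS σ) : TT y σ ≤ NS σ := fun _ ht =>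
  mem_NS.2 fun _ hQ => TT_le_normalizer h hy hQ ht

/-- elements centralizing `y` and stabilizing the chain normalize `RR` -/
theorem normalizer_RR (h : IsNC p σ) {c : G} (hc : c ∈ NS σ)
    (hcy : c * y = y * c) : c ∈ Subgroup.normalizer (RR y σ : Set G) := by
  have hcyc : c * y * c⁻¹ = y := by rw [hcy]; group
  refine mem_normalizer_sup (normalizer_AA h hc) (normalizer_KK ?_ ?_)
  · refine mem_normalizer_sup (mem_normalizer_finset_sup hc) ?_
    rw [mem_normalizer_iff_map, MonoidHom.map_zpowers]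
    simp [MulAut.conj_apply, hcyc]
  · exact ⟨1, Subgroup.one_mem _, by rw [hcyc]; simp⟩

theorem TT_le_normalizer_RR (h : IsNC p σ) (hy : y ∈ NS σ) :
    TT y σ ≤ Subgroup.normalizer (RR y σ : Set G) := by
  intro t ht
  exact mem_normalizer_sup (normalizer_AA h (TT_le_NS h hy ht))
    (normalizer_KK (Subgroup.le_normalizer ht) ⟨t, ht, rfl⟩)

theorem isPGroup_sup (h : IsNC p σ) : IsPGroup p (σ.sup id : Subgroup G) := by
  rcases sup_mem_or h.chain with h1 | h1
  · rw [h1]; exact IsPGroup.of_bot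
  · exact h.isPGroup _ h1

theorem isPGroup_TT (h : IsNC p σ) (hy : y ∈ NS σ) (hyp : IsPGroup p (Subgroup.zpowers y)) :
    IsPGroup p (TT y σ) := by
  refine IsPGroup.to_sup_of_normal_left' (isPGroup_sup h) hyp ?_
  rw [Subgroup.zpowers_le]
  exact mem_normalizer_finset_sup hy

/-- members are comparable with `RR` -/
theorem le_RR_of_notMem {Q : Subgroup G} (hQ : Q ∈ σ) (hyQ : y ∉ Q) : Q ≤ RR y σ := by
  classical
  refine le_trans ?_ (le_sup_left : AA y σ ≤ _)
  exact Finset.le_sup (f := id) (Finset.mem_filter.2 ⟨hQ, hyQ⟩)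

theorem RR_le_of_mem (h : IsNC p σ) (hy : y ∈ NS σ) {Q : Subgroup G} (hQ : Q ∈ σ) (hyQ : y ∈ Q) :
    RR y σ ≤ Q := by
  refine sup_le ?_ (KK_le hyQ (TT_le_normalizer h hy hQ))
  rcases AA_mem_or (y := y) h with h1 | h1
  · rw [h1]; exact bot_le
  · rcases h.chain Q hQ _ h1.1 with h2 | h2
    · exact absurd (h2 hyQ) h1.2
    · exact h2

open Classical in
theorem isNC_insert (h : IsNC p σ) (hy : y ∈ NS σ) (hy1 : y ≠ 1)
    (hyp : IsPGroup p (Subgroup.zpowers y)) : IsNC p (insert (RR y σ) σ) := by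
  have hR : RR y σ ≠ ⊥ := fun hb => hy1 (by
    have := y_mem_RR (y := y) σ
    rwa [hb, Subgroup.mem_bot] at this)
  have hcmp : ∀ Q ∈ σ, Q ≤ RR y σ ∨ RR y σ ≤ Q := by
    intro Q hQ
    by_cases hyQ : y ∈ Q
    · exact Or.inr (RR_le_of_mem h hy hQ hyQ)
    · exact Or.inl (le_RR_of_notMem hQ hyQ)
  have hQT : ∀ Q ∈ σ, Q ≤ TT y σ := fun Q hQ =>
    (Finset.le_sup (f := id) hQ).trans le_sup_left
  refine ⟨?_, ?_, ?_, ?_⟩
  · intro Q hQ R hR'
    rcases Finset.mem_insert.1 hQ with rfl | hQ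
    · rcases Finset.mem_insert.1 hR' with rfl | hR'
      · exact Or.inl le_rfl
      · exact (hcmp R hR').symm
    · rcases Finset.mem_insert.1 hR' with rfl | hR'
      · exact hcmp Q hQ
      · exact h.chain Q hQ R hR'
  · intro Q hQ
    rcases Finset.mem_insert.1 hQ with rfl | hQ
    · exact hR
    · exact h.ne_bot Q hQ
  · intro Q hQ
    rcases Finset.mem_insert.1 hQ with rfl | hQ
    · exact (isPGroup_TT h hy hyp).to_le (RR_le_TT σ)
    · exact h.isPGroup Q hQ
  · intro Q hQ R hR'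
    rcases Finset.mem_insert.1 hQ with rfl | hQ
    · rcases Finset.mem_insert.1 hR' with rfl | hR'
      · exact Subgroup.le_normalizer
      · exact (hQT R hR').trans (TT_le_normalizer_RR h hy)
    · rcases Finset.mem_insert.1 hR' with rfl | hR'
      · exact (RR_le_TT σ).trans (TT_le_normalizer h hy hQ)
      · exact h.norm Q hQ R hR'

theorem IsNC.subset {τ : Finset (Subgroup G)} (h : IsNC p σ) (hτ : τ ⊆ σ) : IsNC p τ :=
  ⟨fun Q hQ R hR => h.chain Q (hτ hQ) R (hτ hR), fun Q hQ => h.ne_bot Q (hτ hQ),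
    fun Q hQ => h.isPGroup Q (hτ hQ), fun Q hQ R hR => h.norm Q (hτ hQ) R (hτ hR)⟩

theorem NS_mono {τ : Finset (Subgroup G)} (hτ : τ ⊆ σ) : NS σ ≤ NS τ := fun _ hg =>
  mem_NS.2 fun Q hQ => mem_NS.1 hg Q (hτ hQ)

/-- if `T` is a `p`-group generated by a normal subgroup `A` and the conjugates of `y ∈ T` then
`T = A ⟨y⟩`. -/
theorem sup_zpowers_eq [Finite G] {T A : Subgroup G} (hT : IsPGroup p T)
    (hAT : A ≤ T) (hA : T ≤ Subgroup.normalizer (A : Set G)) (hy : y ∈ T) (h : A ⊔ KK y T = T) :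
    A ⊔ Subgroup.zpowers y = T := by
  classical
  by_contra hne
  have hle : A ⊔ Subgroup.zpowers y ≤ T := sup_le hAT (by rwa [Subgroup.zpowers_le])
  -- a maximal subgroup of `T` containing `A ⟨y⟩`
  set B : Subgroup T := (A ⊔ Subgroup.zpowers y).subgroupOf T with hB
  have hBne : B ≠ ⊤ := by
    intro hB'
    apply hne
    refine le_antisymm hle ?_
    rw [hB, Subgroup.subgroupOf_eq_top] at hB'
    exact hB'
  obtain ⟨m, hm, hBm⟩ := (eq_top_or_exists_le_coatom B).resolve_left hBne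
  haveI : Group.IsNilpotent T := hT.isNilpotent
  have hmn : m.Normal := Subgroup.NormalizerCondition.normal_of_coatom m
    (Group.normalizerCondition_of_isNilpotent) hm
  have hym : (⟨y, hy⟩ : T) ∈ m := hBm (by
    rw [hB, Subgroup.mem_subgroupOf]
    exact (le_sup_right : Subgroup.zpowers y ≤ A ⊔ Subgroup.zpowers y) (Subgroup.mem_zpowers y))
  have hAm : A ≤ m.map T.subtype := by
    intro a ha
    refine ⟨⟨a, hAT ha⟩, hBm ?_, rfl⟩
    rw [hB, Subgroup.mem_subgroupOf]
    exact (le_sup_left : A ≤ A ⊔ Subgroup.zpowers y) ha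
  have hKm : KK y T ≤ m.map T.subtype := by
    unfold KK
    rw [Subgroup.closure_le]
    rintro x ⟨t, ht, rfl⟩
    refine ⟨⟨t, ht⟩ * ⟨y, hy⟩ * ⟨t, ht⟩⁻¹, hmn.conj_mem _ hym _, rfl⟩
  have h1 : T ≤ m.map T.subtype := h.symm.le.trans (sup_le hAm hKm)
  apply hm.1
  rw [eq_top_iff]
  intro t _
  obtain ⟨t', ht', hh⟩ := h1 t.2
  rwa [← Subtype.ext hh]

open Classical in
theorem AA_insert : AA y (insert (RR y σ) σ) = AA y σ := by
  unfold AA
  rw [Finset.filter_insert, if_neg (not_not.2 (y_mem_RR σ))]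

open Classical in
theorem TT_insert : TT y (insert (RR y σ) σ) = TT y σ := by
  unfold TT
  rw [Finset.sup_insert, id, sup_assoc]
  exact sup_eq_right.2 (RR_le_TT σ)

open Classical in
theorem RR_insert : RR y (insert (RR y σ) σ) = RR y σ := by
  rw [RR_def (insert (RR y σ) σ), AA_insert, TT_insert]
  rfl

open Classical in
theorem RR_erase [Finite G] (h : IsNC p σ) (hy : y ∈ NS σ)
    (hyp : IsPGroup p (Subgroup.zpowers y)) (hR : RR y σ ∈ σ) :
    RR y (σ.erase (RR y σ)) = RR y σ := by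
  have hA : AA y (σ.erase (RR y σ)) = AA y σ := by
    unfold AA
    congr 1
    ext Q
    rw [Finset.mem_filter, Finset.mem_filter, Finset.mem_erase]
    constructor
    · rintro ⟨⟨-, h1⟩, h2⟩; exact ⟨h1, h2⟩
    · rintro ⟨h1, h2⟩
      refine ⟨⟨?_, h1⟩, h2⟩
      rintro rfl
      exact h2 (y_mem_RR σ)
  have hsup : σ.sup id = RR y σ ⊔ (σ.erase (RR y σ)).sup id := by
    conv_lhs => rw [← Finset.insert_erase hR]
    rw [Finset.sup_insert, id]
  have hT : TT y (σ.erase (RR y σ)) = TT y σ := by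
    by_cases hex : ∃ Q ∈ σ.erase (RR y σ), y ∈ Q
    · obtain ⟨Q, hQ, hyQ⟩ := hex
      have h1 : RR y σ ≤ (σ.erase (RR y σ)).sup id :=
        (RR_le_of_mem h hy (Finset.mem_of_mem_erase hQ) hyQ).trans (Finset.le_sup (f := id) hQ)
      unfold TT
      rw [hsup, sup_eq_right.2 h1]
    · push Not at hex
      have h1 : (σ.erase (RR y σ)).sup id = AA y σ := by
        rw [← hA]
        unfold AA
        rw [Finset.filter_true_of_mem hex]
      have h2 : TT y σ = RR y σ := by
        refine le_antisymm ?_ (RR_le_TT σ)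
        unfold TT
        rw [hsup, h1]
        refine sup_le (sup_le le_rfl le_sup_left) ?_
        rw [Subgroup.zpowers_le]
        exact y_mem_RR σ
      have h3 : AA y σ ⊔ Subgroup.zpowers y = TT y σ := by
        refine sup_zpowers_eq (isPGroup_TT h hy hyp) (AA_le_TT σ) ?_ (y_mem_TT σ) h2.symm
        exact fun t ht => normalizer_AA h (TT_le_NS h hy ht)
      conv_lhs => unfold TT
      rw [h1, h3]
  rw [RR_def (σ.erase (RR y σ)), hA, hT]
  rfl

variable (y) in
open Classical in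
/-- the involution -/
noncomputable def tog (σ : Finset (Subgroup G)) : Finset (Subgroup G) :=
  if RR y σ ∈ σ then σ.erase (RR y σ) else insert (RR y σ) σ

open Classical in
theorem tog_of_mem {τ : Finset (Subgroup G)} (h : RR y τ ∈ τ) : tog y τ = τ.erase (RR y τ) := by
  unfold tog; rw [if_pos h]

open Classical in
theorem tog_of_notMem {τ : Finset (Subgroup G)} (h : RR y τ ∉ τ) :
    tog y τ = insert (RR y τ) τ := by
  unfold tog; rw [if_neg h]

theorem RR_tog [Finite G] (h : IsNC p σ) (hy : y ∈ NS σ)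
    (hyp : IsPGroup p (Subgroup.zpowers y)) : RR y (tog y σ) = RR y σ := by
  unfold tog
  split_ifs with hR
  · exact RR_erase h hy hyp hR
  · exact RR_insert

theorem isNC_tog (h : IsNC p σ) (hy : y ∈ NS σ) (hy1 : y ≠ 1)
    (hyp : IsPGroup p (Subgroup.zpowers y)) : IsNC p (tog y σ) := by
  classical
  unfold tog
  split_ifs with hR
  · exact h.subset (Finset.erase_subset _ _)
  · exact isNC_insert h hy hy1 hyp

theorem mem_NS_tog (h : IsNC p σ) {c : G} (hc : c ∈ NS σ) (hcy : c * y = y * c) :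
    c ∈ NS (tog y σ) := by
  classical
  unfold tog
  split_ifs with hR
  · exact NS_mono (Finset.erase_subset _ _) hc
  · rw [mem_NS]
    intro Q hQ
    rcases Finset.mem_insert.1 hQ with rfl | hQ
    · exact normalizer_RR h hc hcy
    · exact mem_NS.1 hc Q hQ

theorem tog_tog [Finite G] (h : IsNC p σ) (hy : y ∈ NS σ)
    (hyp : IsPGroup p (Subgroup.zpowers y)) : tog y (tog y σ) = σ := by
  classical
  have h1 := RR_tog h hy hyp
  by_cases hR : RR y σ ∈ σ
  · have h2 := tog_of_mem hR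
    have h3 : RR y (tog y σ) ∉ tog y σ := by rw [h1, h2]; simp
    rw [tog_of_notMem h3, h1, h2, Finset.insert_erase hR]
  · have h2 := tog_of_notMem hR
    have h3 : RR y (tog y σ) ∈ tog y σ := by rw [h1, h2]; simp
    rw [tog_of_mem h3, h1, h2, Finset.erase_insert hR]

theorem tog_ne : tog y σ ≠ σ := by
  classical
  unfold tog
  split_ifs with hR
  · intro h
    have := Finset.notMem_erase (RR y σ) σ
    rw [h] at this
    exact this hR
  · intro h
    apply hR
    have h2 := Finset.mem_insert_self (RR y σ) σ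
    rwa [h] at h2

theorem card_tog : ((-1 : ℂ) ^ (tog y σ).card) = -(-1) ^ σ.card := by
  classical
  unfold tog
  split_ifs with hR
  · have h1 := Finset.card_erase_add_one hR
    rw [← h1, pow_succ]; ring
  · rw [Finset.card_insert_of_notMem hR, pow_succ]; ring

theorem centralizer_inf_NS_tog [Finite G] (h : IsNC p σ) (hy : y ∈ NS σ) (hy1 : y ≠ 1)
    (hyp : IsPGroup p (Subgroup.zpowers y)) :
    Subgroup.centralizer ({y} : Set G) ⊓ NS (tog y σ) =
      Subgroup.centralizer ({y} : Set G) ⊓ NS σ := by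
  have key : ∀ τ : Finset (Subgroup G), IsNC p τ →
      Subgroup.centralizer ({y} : Set G) ⊓ NS τ ≤
        Subgroup.centralizer ({y} : Set G) ⊓ NS (tog y τ) := by
    rintro τ hτ c ⟨hc1, hc2⟩
    exact ⟨hc1, mem_NS_tog hτ hc2 (Subgroup.mem_centralizer_singleton_iff.1 hc1)⟩
  refine le_antisymm ?_ (key σ h)
  have := key (tog y σ) (isNC_tog h hy hy1 hyp)
  rwa [tog_tog h hy hyp] at this

open Classical in
/-- **the cancellation** -/
theorem sum_chains_eq_zero [Finite G] (S : Finset (Finset (Subgroup G))) (g : G)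
    (hgy : g * y = y * g) (hyg : y ∈ Subgroup.zpowers g)
    (hS : ∀ σ, σ ∈ S ↔ IsNC p σ ∧ g ∈ NS σ) (hy1 : y ≠ 1)
    (hyp : IsPGroup p (Subgroup.zpowers y)) (W : Subgroup G → ℂ) :
    ∑ σ ∈ S, (-1 : ℂ) ^ σ.card * W (Subgroup.centralizer ({y} : Set G) ⊓ NS σ) = 0 := by
  have hyNS : ∀ σ ∈ S, y ∈ NS σ := fun σ hσ =>
    (Subgroup.zpowers_le.2 ((hS σ).1 hσ).2) hyg
  refine Finset.sum_involution (fun σ _ => tog y σ) ?_ ?_ ?_ ?_
  · intro σ hσ
    have h := ((hS σ).1 hσ).1
    rw [centralizer_inf_NS_tog h (hyNS σ hσ) hy1 hyp, card_tog]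
    ring
  · intro σ _ _
    exact tog_ne
  · intro σ hσ
    have h := (hS σ).1 hσ
    exact (hS _).2 ⟨isNC_tog h.1 (hyNS σ hσ) hy1 hyp, mem_NS_tog h.1 h.2 hgy⟩
  · intro σ hσ
    exact tog_tog ((hS σ).1 hσ).1 (hyNS σ hσ) hyp

end toggle

end Cfsg.Agent.BlkC.Chain
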