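import Cfsg.Agent.BlkC.ChainChar
import Cfsg.Agent.BlkC.ChainInv

/-!
# The alternating sum of `k - l` over normal chains of `p`-subgroups (owner: helper78)
-/

set_option autoImplicit false
set_option linter.style.haveILetI false
set_option linter.unusedSectionVars false

namespace Cfsg.Agent.BlkC

open scoped ComplexConjugate
open Cfsg Cfsg.Agent.CharBase Cfsg.Agent.Blk Cfsg.Agent.BlkInd

universe u v

variable {G : Type u} [Group G] [Fintype G] {p : ℕ} [hp : Fact p.Prime] {M : Ideal AlgInt}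

variable (p M) in
open Classical in
/-- `|N| (k(b_N) - l(b_N))` for `N = NS σ`, as a sum over the group -/
noncomputable def DD (b : Set (IrrCharacter G)) (K : Subgroup G) : ℂ :=
  ∑ g : G, if p ∣ orderOf g ∧ g ∈ K then
    WG M b (Subgroup.centralizer ({ppt p g} : Set G) ⊓ K) (rpt p g) else 0

open Classical in
theorem sum_subgroup_eq (K : Subgroup G) [Fintype K] (f : G → ℂ) :
    ∑ l : K, f (l : G) = ∑ g : G, if g ∈ K then f g else 0 := by
  rw [← Finset.sum_filter]
  refine (Finset.sum_bij (fun (l : K) _ => (l : G)) ?_ ?_ ?_ ?_)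
  · intro l _; simp
  · intro l _ l' _ h; exact Subtype.ext h
  · intro g hg
    exact ⟨⟨g, (Finset.mem_filter.mp hg).2⟩, Finset.mem_univ _, rfl⟩
  · intro l _; rfl

theorem card_mul_eq_DD (hM : IsPModular p M) (b : Set (IrrCharacter G)) (K : Subgroup G)
    [Fintype K] : (Nat.card K : ℂ) * ((Nat.card (inb M b K.subtype) : ℂ) -
      (blockRank p (inb M b K.subtype) : ℂ)) = DD p M b K := by
  classical
  rw [card_mul_inb b hM K.subtype K.subtype_injective]
  unfold DD
  have h1 : ∀ l : K, (if p ∣ orderOf l then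
      WG M b (Subgroup.centralizer ({ppt p (K.subtype l)} : Set G) ⊓ K.subtype.range)
        (rpt p (K.subtype l)) else 0) = (fun g : G => if p ∣ orderOf g then
      WG M b (Subgroup.centralizer ({ppt p g} : Set G) ⊓ K) (rpt p g) else 0) (l : G) := by
    intro l
    simp only [Subgroup.range_subtype, Subgroup.orderOf_coe]
    rfl
  rw [Finset.sum_congr rfl fun l _ => h1 l, sum_subgroup_eq K (fun g : G => if p ∣ orderOf g then
      WG M b (Subgroup.centralizer ({ppt p g} : Set G) ⊓ K) (rpt p g) else 0)]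
  refine Finset.sum_congr rfl fun g _ => ?_
  by_cases hg : g ∈ K <;> by_cases hp' : p ∣ orderOf g <;> simp [hg, hp']

theorem card_mul_eq_DD_top (hM : IsPModular p M) (b : Set (IrrCharacter G))
    (hb : IsPBlock M b) : (Nat.card G : ℂ) * ((Nat.card b : ℂ) - (blockRank p b : ℂ)) =
      DD p M b ⊤ := by
  classical
  haveI := isPrime_of_isPModular hM
  have h := card_mul_inb b hM (MonoidHom.id G) Function.injective_id
  rw [inb_id b hb] at h
  rw [h]
  unfold DD
  refine Finset.sum_congr rfl fun g _ => ?_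
  have hr : (MonoidHom.id G).range = ⊤ := by
    rw [MonoidHom.range_eq_top]; exact Function.surjective_id
  simp only [hr, Subgroup.mem_top, and_true, MonoidHom.id_apply]

open Classical in
theorem sum_DD_eq_zero (hM : IsPModular p M) (b : Set (IrrCharacter G)) :
    ∑ σ ∈ (Finset.univ : Finset (Finset (Subgroup G))).filter (fun σ => Chain.IsNC p σ),
      (-1 : ℂ) ^ σ.card * DD p M b (Chain.NS σ) = 0 := by
  unfold DD
  have h1 : ∀ σ : Finset (Subgroup G), (-1 : ℂ) ^ σ.card * (∑ g : G,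
      if p ∣ orderOf g ∧ g ∈ Chain.NS σ then
        WG M b (Subgroup.centralizer ({ppt p g} : Set G) ⊓ Chain.NS σ) (rpt p g) else 0) =
      ∑ g : G, if p ∣ orderOf g ∧ g ∈ Chain.NS σ then (-1 : ℂ) ^ σ.card *
        WG M b (Subgroup.centralizer ({ppt p g} : Set G) ⊓ Chain.NS σ) (rpt p g) else 0 := by
    intro σ
    rw [Finset.mul_sum]
    refine Finset.sum_congr rfl fun g _ => ?_
    split_ifs
    · rfl
    · exact mul_zero _
  rw [Finset.sum_congr rfl fun σ _ => h1 σ, Finset.sum_comm]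
  refine Finset.sum_eq_zero fun g _ => ?_
  by_cases hg : p ∣ orderOf g
  swap
  · refine Finset.sum_eq_zero fun σ _ => ?_
    rw [if_neg (fun h => hg h.1)]
  obtain ⟨e1, e2, e3, e4, e5, e6⟩ := ppt_spec p g
  have hcomm : g * ppt p g = ppt p g * g := by
    obtain ⟨n, hn⟩ := Subgroup.mem_zpowers_iff.mp e5
    rw [← hn]
    exact ((Commute.refl g).zpow_right n).eq
  have hyp : IsPGroup p (Subgroup.zpowers (ppt p g)) := by
    obtain ⟨k, hk⟩ := e3
    exact IsPGroup.of_card (by rw [Nat.card_zpowers, hk])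
  have h2 := Chain.sum_chains_eq_zero (p := p)
    (((Finset.univ : Finset (Finset (Subgroup G))).filter (fun σ => Chain.IsNC p σ)).filter
      (fun σ => g ∈ Chain.NS σ)) g hcomm e5 (fun σ => by simp) (ppt_ne_one p hg) hyp
    (fun K => WG M b K (rpt p g))
  rw [Finset.sum_filter] at h2
  refine Eq.trans (Finset.sum_congr rfl fun σ _ => ?_) h2
  by_cases h : g ∈ Chain.NS σ <;> simp [h, hg]

/-- the sets of chains agree -/
theorem isNC_iff {σ : Finset (Subgroup G)} (hne : σ.Nonempty) : Chain.IsNC p σ ↔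
    ((∀ Q ∈ σ, ∀ R ∈ σ, Q ≤ R ∨ R ≤ Q) ∧ (∀ Q ∈ σ, Q ≠ ⊥ ∧ IsPGroup p Q) ∧
      ∃ T ∈ σ, ∀ Q ∈ σ, Q ≤ T ∧ T ≤ Subgroup.normalizer ((Q : Subgroup G) : Set G)) := by
  constructor
  · intro h
    refine ⟨h.chain, fun Q hQ => ⟨h.ne_bot Q hQ, h.isPGroup Q hQ⟩, σ.sup id, ?_, fun Q hQ => ?_⟩
    · rcases Chain.sup_mem_or h.chain with h1 | h1
      · exfalso
        obtain ⟨Q, hQ⟩ := hne
        exact h.ne_bot Q hQ (le_bot_iff.1 ((Finset.le_sup (f := id) hQ).trans h1.le))
      · exact h1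
    · exact ⟨Finset.le_sup (f := id) hQ, Finset.sup_le fun R hR => h.norm Q hQ R hR⟩
  · rintro ⟨h1, h2, T, -, hT⟩
    exact ⟨h1, fun Q hQ => (h2 Q hQ).1, fun Q hQ => (h2 Q hQ).2, fun Q hQ R hR =>
      (hT R hR).1.trans (hT Q hQ).2⟩

end Cfsg.Agent.BlkC
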