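import Cfsg.Agent.BlkC.SubPair

/-!
# Unions of blocks: rank formula and second main theorem (owner: helper78)
-/

set_option autoImplicit false
set_option linter.style.haveILetI false
set_option linter.unusedSectionVars false

namespace Cfsg.Agent.BlkC

open scoped ComplexConjugate
open Cfsg Cfsg.Agent.CharBase Cfsg.Agent.Blk Cfsg.Agent.BlkInd

universe u

variable {G : Type u} [Group G] [Fintype G] {p : ℕ} [hp : Fact p.Prime] {M : Ideal AlgInt}

/-- `S` is a union of blocks -/
def ClosedSB (M : Ideal AlgInt) {G : Type u} [Group G] (S : Set (IrrCharacter G)) : Prop :=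
  ∀ χ ∈ S, ∀ ψ : IrrCharacter G, SameBlock M (χ : G → ℂ) (ψ : G → ℂ) → ψ ∈ S

theorem ClosedSB.blockOf_subset {S : Set (IrrCharacter G)} (hS : ClosedSB M S) {χ : IrrCharacter G}
    (hχ : χ ∈ S) : blockOf M (χ : G → ℂ) ⊆ S := fun ψ hψ => hS χ hχ ψ hψ

theorem pRegularPart_eq_sum_closed (hM : IsPModular p M) {S : Set (IrrCharacter G)}
    (hS : ClosedSB M S) {χ : IrrCharacter G} (hχ : χ ∈ S) :
    pRegularPart p (χ : G → ℂ) =
      ∑ ψ ∈ Bfin S, regInner p (χ : G → ℂ) (ψ : G → ℂ) • (ψ : G → ℂ) := by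
  classical
  haveI := isPrime_of_isPModular hM
  haveI := Fintype.ofFinite (IrrCharacter G)
  rw [classFun_eq_sum (pRegularPart_isClassFunction (p := p) (irr_isClassFunction χ)),
    ← Finset.sum_subset (Finset.subset_univ (Bfin S))]
  · refine Finset.sum_congr rfl fun ψ _ => ?_
    rw [regInner_eq_classInner]
  · intro ψ _ hψ
    rw [← regInner_eq_classInner, regInner_eq_zero hM, zero_smul]
    intro h
    exact hψ (mem_Bfin.mpr (hS χ hχ ψ h))

theorem regProj_isProj_closed (hM : IsPModular p M) {S : Set (IrrCharacter G)}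
    (hS : ClosedSB M S) :
    LinearMap.IsProj (Submodule.span ℂ ((fun χ : IrrCharacter G => pRegularPart p (χ : G → ℂ)) '' S))
      (regProj p S) := by
  constructor
  · intro f
    refine Submodule.sum_mem _ fun χ hχ => Submodule.smul_mem _ _ (Submodule.subset_span ?_)
    exact ⟨χ, mem_Bfin.mp hχ, rfl⟩
  · intro x hx
    induction hx using Submodule.span_induction with
    | mem x hx =>
      obtain ⟨χ, hχ, rfl⟩ := hx
      show ∑ ψ ∈ Bfin S, classInner (pRegularPart p (χ : G → ℂ)) (ψ : G → ℂ) •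
        pRegularPart p (ψ : G → ℂ) = pRegularPart p (χ : G → ℂ)
      have h1 := congrArg (pRegularPart p) (pRegularPart_eq_sum_closed hM hS hχ)
      rw [pRegularPart_idem, pRegularPart_sum] at h1
      conv_rhs => rw [h1]
      refine Finset.sum_congr rfl fun ψ _ => ?_
      rw [regInner_eq_classInner]
    | zero => simp
    | add x y _ _ hx hy => rw [map_add, hx, hy]
    | smul c x _ hx => rw [map_smul, hx]

theorem sum_regInner_self_closed (hM : IsPModular p M) {S : Set (IrrCharacter G)}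
    (hS : ClosedSB M S) :
    ∑ χ ∈ Bfin S, regInner p (χ : G → ℂ) (χ : G → ℂ) = (blockRank p S : ℂ) := by
  rw [← trace_regProj, (regProj_isProj_closed hM hS).trace]
  rfl

open Classical in
/-- `|G| (k(S) - l(S))` is the sum of `|χ(g)|²` over `χ ∈ S` and `p`-singular `g`. -/
theorem card_mul_card_sub_rank (hM : IsPModular p M) {S : Set (IrrCharacter G)}
    (hS : ClosedSB M S) :
    (Nat.card G : ℂ) * ((Nat.card S : ℂ) - (blockRank p S : ℂ)) =
      ∑ g : G, if p ∣ orderOf g then
        ∑ χ ∈ Bfin S, (χ : G → ℂ) g * conj ((χ : G → ℂ) g) else 0 := by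
  have hG : (Nat.card G : ℂ) ≠ 0 := by exact_mod_cast Nat.card_pos.ne'
  rw [← sum_regInner_self_closed hM hS, natCard_eq_Bfin, Finset.cast_card, ← Finset.sum_sub_distrib,
    Finset.mul_sum]
  have h1 : ∀ χ : IrrCharacter G, (Nat.card G : ℂ) * (1 - regInner p (χ : G → ℂ) (χ : G → ℂ)) =
      ∑ g : G, if p ∣ orderOf g then (χ : G → ℂ) g * conj ((χ : G → ℂ) g) else 0 := by
    intro χ
    have h2 : (1 : ℂ) = (Nat.card G : ℂ)⁻¹ * ∑ g : G, (χ : G → ℂ) g * conj ((χ : G → ℂ) g) := by
      rw [← classInner_irr_self χ]; rfl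
    rw [h2]
    unfold regInner
    rw [← mul_sub, ← mul_assoc, mul_inv_cancel₀ hG, one_mul, ← Finset.sum_sub_distrib]
    refine Finset.sum_congr rfl fun g _ => ?_
    by_cases hg : p ∣ orderOf g
    · simp [regConj, hg]
    · simp [regConj, hg]
  rw [Finset.sum_congr rfl fun χ _ => h1 χ, Finset.sum_comm]
  refine Finset.sum_congr rfl fun g _ => ?_
  split_ifs
  · rfl
  · exact Finset.sum_const_zero

variable {C : Subgroup G} [Fintype C]

/-- the members of `Irr(C)` whose block induces a block contained in `S` -/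
def indSet (M : Ideal AlgInt) (C : Subgroup G) (S : Set (IrrCharacter G)) :
    Set (IrrCharacter C) :=
  {η | ∃ ψ ∈ S, IsInducedBlock M C (blockOf M (η : C → ℂ)) (blockOf M (ψ : G → ℂ))}

open Classical in
/-- the second main theorem for a union of blocks -/
theorem sum_section_closed (hM : IsPModular p M) {x : G}
    (hx : ∃ k : ℕ, orderOf x = p ^ k) (hC : C = Subgroup.centralizer ({x} : Set G))
    {S : Set (IrrCharacter G)} (hS : ClosedSB M S) {s : C} (hs : ¬ p ∣ orderOf s) :
    ∑ χ ∈ Bfin S, (χ : G → ℂ) (x * s) * conj ((χ : G → ℂ) (x * s)) =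
      ∑ η ∈ Bfin (indSet M C S), (η : C → ℂ) s * conj ((η : C → ℂ) s) := by
  haveI := isPrime_of_isPModular hM
  haveI := Fintype.ofFinite (IrrCharacter C)
  haveI := Fintype.ofFinite (IrrCharacter G)
  -- the blocks of `C`
  set bl : IrrCharacter C → Set (IrrCharacter C) := fun η => blockOf M (η : C → ℂ) with hbl
  set T : Finset (Set (IrrCharacter C)) := Finset.univ.image bl with hT
  have hTb : ∀ e ∈ T, IsPBlock M e := by
    intro e he
    obtain ⟨η, -, rfl⟩ := Finset.mem_image.mp he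
    exact isPBlock_blockOf η
  have hfib : ∀ e ∈ T, (Finset.univ.filter fun η : IrrCharacter C => bl η = e) = Bfin e := by
    intro e he
    ext η
    rw [Finset.mem_filter, mem_Bfin]
    constructor
    · rintro ⟨-, h⟩; rw [← h]; exact mem_blockOf_self η
    · intro h
      exact ⟨Finset.mem_univ _, isPBlock_eq_of_mem (isPBlock_blockOf η) (hTb e he)
        (mem_blockOf_self η) h⟩
  have hsumT : ∀ f : IrrCharacter C → ℂ, ∑ η, f η = ∑ e ∈ T, ∑ η ∈ Bfin e, f η := by
    intro f
    rw [← Finset.sum_fiberwise_of_maps_to (s := Finset.univ) (t := T) (g := bl)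
      (fun η _ => Finset.mem_image_of_mem _ (Finset.mem_univ η))]
    refine Finset.sum_congr rfl fun e he => ?_
    rw [hfib e he]
  -- the blocks inducing into `S`
  set TS := T.filter fun e => ∃ ψ ∈ S, IsInducedBlock M C e (blockOf M (ψ : G → ℂ)) with hTS
  -- decomposition of `χ(x s)`
  have hdec : ∀ χ : IrrCharacter G, (χ : G → ℂ) (x * s) = ∑ e ∈ T, dpart p x e (χ : G → ℂ) s := by
    intro χ
    have h1 := classFun_eq_sum (classFun_translate hC (irr_isClassFunction χ))
    have h2 := congrFun h1 s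
    rw [Finset.sum_apply] at h2
    change (χ : G → ℂ) (x * (s : G)) = _ at h2
    rw [h2, hsumT]
    refine Finset.sum_congr rfl fun e _ => ?_
    unfold dpart
    rw [pRegularPart_apply_of_reg hs, blockPart_eq_Bfin]
    rfl
  have hz : ∀ χ : IrrCharacter G, ∀ e ∈ T, dpart p x e (χ : G → ℂ) s ≠ 0 → (e ∈ TS ↔ χ ∈ S) := by
    intro χ e he hne
    obtain ⟨β, hβ⟩ := exists_induced hM hx hC (hTb e he)
    have hχβ : χ ∈ β := by
      by_contra h
      exact hne (congrFun (dpart_eq_zero_of_notMem hM hx hC hβ h) s)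
    have hβχ : blockOf M (χ : G → ℂ) = β :=
      isPBlock_eq_of_mem (isPBlock_blockOf χ) hβ.2.1 (mem_blockOf_self χ) hχβ
    constructor
    · intro h
      obtain ⟨-, ψ, hψ, hind⟩ := Finset.mem_filter.mp h
      obtain ⟨ξ, hξ⟩ := block_nonempty hind.1
      refine hS ψ hψ χ fun g => ?_
      exact mli_trans (mli_symm (hind.2.2 ξ hξ ψ (mem_blockOf_self ψ) g)) (hβ.2.2 ξ hξ χ hχβ g)
    · intro h
      exact Finset.mem_filter.mpr ⟨he, χ, h, by rw [hβχ]; exact hβ⟩
  have h1 : ∑ χ ∈ Bfin S, (χ : G → ℂ) (x * s) * conj ((χ : G → ℂ) (x * s)) =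
      ∑ χ : IrrCharacter G, (∑ e ∈ TS, dpart p x e (χ : G → ℂ) s) *
        conj (∑ e ∈ TS, dpart p x e (χ : G → ℂ) s) := by
    rw [← Finset.sum_subset (Finset.subset_univ (Bfin S))]
    · refine Finset.sum_congr rfl fun χ hχ => ?_
      have h2 : (χ : G → ℂ) (x * s) = ∑ e ∈ TS, dpart p x e (χ : G → ℂ) s := by
        rw [hdec]
        symm
        refine Finset.sum_subset (Finset.filter_subset _ _) fun e he hne => ?_
        by_contra h
        exact hne ((hz χ e he h).mpr (mem_Bfin.mp hχ))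
      rw [h2]
    · intro χ _ hχ
      have h2 : ∑ e ∈ TS, dpart p x e (χ : G → ℂ) s = 0 := by
        refine Finset.sum_eq_zero fun e he => ?_
        by_contra h
        exact hχ (mem_Bfin.mpr ((hz χ e (Finset.mem_filter.mp he).1 h).mp he))
      rw [h2, zero_mul]
  rw [h1]
  have h2 : ∀ χ : IrrCharacter G, (∑ e ∈ TS, dpart p x e (χ : G → ℂ) s) *
        conj (∑ e ∈ TS, dpart p x e (χ : G → ℂ) s) = ∑ e ∈ TS, ∑ e' ∈ TS,
          dpart p x e (χ : G → ℂ) s * conj (dpart p x e' (χ : G → ℂ) s) := by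
    intro χ
    rw [map_sum, Finset.sum_mul_sum]
  rw [Finset.sum_congr rfl fun χ _ => h2 χ, Finset.sum_comm]
  have h3 : ∀ e ∈ TS, ∑ χ : IrrCharacter G, ∑ e' ∈ TS,
      dpart p x e (χ : G → ℂ) s * conj (dpart p x e' (χ : G → ℂ) s) =
        ∑ η ∈ Bfin e, (η : C → ℂ) s * conj ((η : C → ℂ) s) := by
    intro e he
    have heT := (Finset.mem_filter.mp he).1
    rw [Finset.sum_comm, Finset.sum_eq_single e]
    · rw [sum_dpart_mul_conj hM hx hC (hTb e heT) (hTb e heT) hs hs, if_pos rfl,
        blockKernel_eq_Bfin]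
    · intro e' he' hne
      rw [sum_dpart_mul_conj hM hx hC (hTb e heT) (hTb e' (Finset.mem_filter.mp he').1) hs hs,
        if_neg (Ne.symm hne)]
    · intro h; exact absurd he h
  rw [Finset.sum_congr rfl h3]
  -- the right hand side
  have h4 : ∑ η ∈ Bfin (indSet M C S), (η : C → ℂ) s * conj ((η : C → ℂ) s) =
      ∑ η : IrrCharacter C, if η ∈ indSet M C S then (η : C → ℂ) s * conj ((η : C → ℂ) s) else 0 := by
    rw [← Finset.sum_filter]
    refine Finset.sum_congr ?_ fun _ _ => rfl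
    ext η
    simp
  rw [h4, hsumT, ← Finset.sum_subset (show TS ⊆ T from Finset.filter_subset _ _)]
  · refine Finset.sum_congr rfl fun e he => Finset.sum_congr rfl fun η hη => ?_
    obtain ⟨heT, ψ, hψ, hind⟩ := Finset.mem_filter.mp he
    rw [if_pos]
    refine ⟨ψ, hψ, ?_⟩
    rwa [isPBlock_eq_of_mem (isPBlock_blockOf η) (hTb e heT) (mem_blockOf_self η)
      (mem_Bfin.mp hη)]
  · intro e heT hne
    refine Finset.sum_eq_zero fun η hη => ?_
    rw [if_neg]
    rintro ⟨ψ, hψ, hind⟩
    apply hne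
    refine Finset.mem_filter.mpr ⟨heT, ψ, hψ, ?_⟩
    rwa [isPBlock_eq_of_mem (isPBlock_blockOf η) (hTb e heT) (mem_blockOf_self η)
      (mem_Bfin.mp hη)] at hind

end Cfsg.Agent.BlkC
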